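import Cfsg.Agent.Chars.Fi22U6.Geom
import Cfsg.Agent.Screen.CosetEnum.Fi22U62.Data
import Cfsg.Agent.Screen.CosetEnum.Fi22U62.Orbits
import Cfsg.Agent.Screen.CosetEnum.OrderGlue

/-!
# Checks linking the orbit of 693 cosets with the isotropic points
-/

set_option autoImplicit false
set_option maxRecDepth 20000

namespace Cfsg.Agent.Chars.Fi22U6

open Cfsg.Agent.Screen.CosetEnum

/-- The orbit. -/
def orbS : ℕ := Fi22U62.orb1

/-- The coded point of a coset. -/
def ptC (c : ℕ) : ℕ := field ptTree c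

/-- The coset of a code. -/
def invK (s : ℕ) : ℕ := field invTree (2 * s)

/-- The scalar of a code. -/
def invL (s : ℕ) : ℕ := field invTree (2 * s + 1)

/-- Equal up to a scalar. -/
def scalOK (x y : ℕ) : Bool :=
  Nat.beq x (smulC 1 y) || Nat.beq x (smulC 2 y) || Nat.beq x (smulC 3 y)

/-- A word acts on the orbit as a transvection on the points. -/
def compGo (T : Tab) (w : List ℕ) (v : ℕ) : ℕ → Bool
  | 0 => true
  | c + 1 =>
    (bif bit orbS c then force (T.app w c) fun d => bit orbS d && scalOK (stepC v (ptC c)) (ptC d) else true) &&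
      compGo T w v c

/-- Every isotropic code is a multiple of a point. -/
def invGo : ℕ → Bool
  | 0 => true
  | s + 1 =>
    (Nat.beq s 0 || !(Nat.beq (hC s s) 0) ||
      (Nat.blt (invK s) 3510 && bit orbS (invK s) && Nat.blt 0 (invL s) && Nat.blt (invL s) 4 &&
        Nat.beq (smulC (invL s) (ptC (invK s))) s)) && invGo s

theorem comp_ok : ∀ i < 9, compGo Fi22U62.tbl (Fi22U62.tbl.subs.getD i []) (vecs.getD i 0) 3510 = true := by
  decide +kernel

theorem inv_ok : invGo 4096 = true := by decide +kernel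

theorem vecs_ok : ∀ i < 9, hC (vecs.getD i 0) (vecs.getD i 0) = 0 := by decide +kernel

theorem compGo_spec {T : Tab} {w : List ℕ} {v : ℕ} : ∀ {k}, compGo T w v k = true → ∀ c < k, bit orbS c = true →
    bit orbS (T.app w c) = true ∧ ∃ l, 0 < l ∧ l < 4 ∧ stepC v (ptC c) = smulC l (ptC (T.app w c))
  | 0, _, c, hc => absurd hc (Nat.not_lt_zero c)
  | k + 1, h, c, hc => by
    simp only [compGo, Bool.and_eq_true, force_eq] at h
    rcases Nat.lt_or_ge c k with hc' | hc'
    · exact compGo_spec h.2 c hc'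
    · obtain rfl : c = k := by omega
      intro hb
      have h1 := h.1
      rw [hb, cond_true, Bool.and_eq_true] at h1
      refine ⟨h1.1, ?_⟩
      have h2 := h1.2
      simp only [scalOK, Bool.or_eq_true] at h2
      rcases h2 with (h2 | h2) | h2
      · exact ⟨1, by norm_num, by norm_num, Nat.eq_of_beq_eq_true h2⟩
      · exact ⟨2, by norm_num, by norm_num, Nat.eq_of_beq_eq_true h2⟩
      · exact ⟨3, by norm_num, by norm_num, Nat.eq_of_beq_eq_true h2⟩

theorem invGo_spec : ∀ {k}, invGo k = true → ∀ s < k, s ≠ 0 → hC s s = 0 →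
    invK s < 3510 ∧ bit orbS (invK s) = true ∧ 0 < invL s ∧ invL s < 4 ∧ smulC (invL s) (ptC (invK s)) = s
  | 0, _, s, hs => absurd hs (Nat.not_lt_zero s)
  | k + 1, h, s, hs => by
    simp only [invGo, Bool.and_eq_true] at h
    rcases Nat.lt_or_ge s k with hs' | hs'
    · exact invGo_spec h.2 s hs'
    · obtain rfl : s = k := by omega
      intro h0 hh
      have h1 := h.1
      simp only [Bool.or_eq_true, Bool.and_eq_true, Nat.blt_eq, Bool.not_eq_true'] at h1
      rcases h1 with (h1 | h1) | h1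
      · exact absurd (Nat.eq_of_beq_eq_true h1) h0
      · rw [hh] at h1; exact absurd h1 (by decide)
      · exact ⟨h1.1.1.1.1, h1.1.1.1.2, h1.1.1.2, h1.1.2, Nat.eq_of_beq_eq_true h1.2⟩

end Cfsg.Agent.Chars.Fi22U6
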