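import Cfsg.Prelude.Def_Classical
import Cfsg.Agent.Chars.Fi22U6.Data

/-!
# Transvections of the six-dimensional unitary group over the field with four elements
-/

set_option autoImplicit false
set_option maxRecDepth 20000

namespace Cfsg.Agent.Chars.Fi22U6

open Matrix Cfsg.Agent.Screen.CosetEnum

/-- The field with four elements. -/
inductive F4 : Type
  | o | e | w | v
deriving DecidableEq

namespace F4

instance : Fintype F4 := ⟨{.o, .e, .w, .v}, fun a => by cases a <;> decide⟩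

/-- Sum. -/
def addC : F4 → F4 → F4
  | .o, b => b
  | a, .o => a
  | .e, .e => .o | .e, .w => .v | .e, .v => .w
  | .w, .e => .v | .w, .w => .o | .w, .v => .e
  | .v, .e => .w | .v, .w => .e | .v, .v => .o

/-- Product. -/
def mulC : F4 → F4 → F4
  | .o, _ => .o
  | _, .o => .o
  | .e, b => b
  | a, .e => a
  | .w, .w => .v | .w, .v => .e | .v, .w => .e | .v, .v => .w

/-- Inverse. -/
def invC : F4 → F4
  | .o => .o | .e => .e | .w => .v | .v => .w

instance : Add F4 := ⟨addC⟩
instance : Mul F4 := ⟨mulC⟩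
instance : Neg F4 := ⟨id⟩
instance : Inv F4 := ⟨invC⟩
instance : Zero F4 := ⟨.o⟩
instance : One F4 := ⟨.e⟩

instance instFieldFour : Field F4 :=
  Field.ofMinimalAxioms F4 (by decide +kernel) (by decide +kernel) (by decide +kernel) (by decide +kernel)
    (by decide +kernel) (by decide +kernel) (by decide +kernel) (by decide +kernel) (by decide +kernel)
    ⟨.o, .e, by decide +kernel⟩

/-- The element with a given two-bit code. -/
def ofN : ℕ → F4
  | 1 => .e | 2 => .w | 3 => .v | _ => .o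

/-- The two-bit code. -/
def toN : F4 → ℕ
  | .o => 0 | .e => 1 | .w => 2 | .v => 3

theorem toN_lt : ∀ a : F4, toN a < 4 := by decide
theorem ofN_toN : ∀ a : F4, ofN (toN a) = a := by decide
theorem card : Fintype.card F4 = 4 := by decide
theorem sq_add : ∀ a b : F4, (a + b) ^ 2 = a ^ 2 + b ^ 2 := by decide +kernel
theorem pow_four : ∀ a : F4, a ^ 4 = a := by decide +kernel
theorem pow_three : ∀ a : F4, a ≠ 0 → a ^ 3 = 1 := by decide +kernel
theorem add_self : ∀ a : F4, a + a = 0 := by decide +kernel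

end F4

/-- Vectors. -/
abbrev V6 : Type := Fin 6 → F4

/-- The form. -/
abbrev h6 : V6 → V6 → F4 := Cfsg.hermForm 6 F4 2

/-- The special unitary group. -/
abbrev SU6 : Type := ↥(Cfsg.SU 6 F4 2)

/-- The matrix of an element. -/
def mat (g : SU6) : Matrix (Fin 6) (Fin 6) F4 := Cfsg.slToMat 6 F4 (g : Matrix.SpecialLinearGroup (Fin 6) F4)

theorem mat_mul (g g' : SU6) : mat (g * g') = mat g * mat g' := by
  simp [mat]

theorem mat_one : mat (1 : SU6) = 1 := by simp [mat]

theorem mat_h (g : SU6) (x y : V6) : h6 (mat g *ᵥ x) (mat g *ᵥ y) = h6 x y := g.2 x y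

theorem SU6_ext {g g' : SU6} (e : ∀ x, mat g *ᵥ x = mat g' *ᵥ x) : g = g' :=
  Subtype.ext (Subtype.ext (show mat g = mat g' from ext_of_mulVec_single fun _ => e _))

theorem mulVec_inv (g : SU6) (x : V6) : mat g⁻¹ *ᵥ (mat g *ᵥ x) = x := by
  rw [mulVec_mulVec, ← mat_mul, inv_mul_cancel, mat_one, one_mulVec]

/-- The matrix of a transvection. -/
def tMat (v : V6) : Matrix (Fin 6) (Fin 6) F4 := 1 + vecMulVec v (fun i => v i ^ 2)

theorem tMat_mulVec (v x : V6) : tMat v *ᵥ x = x + h6 x v • v := by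
  rw [tMat, add_mulVec, one_mulVec]
  congr 1
  ext i
  simp [mulVec, dotProduct, vecMulVec, h6, Cfsg.hermForm, Finset.mul_sum, mul_comm, mul_left_comm]

theorem h6_add_left (x y z : V6) : h6 (x + y) z = h6 x z + h6 y z := by
  simp [h6, Cfsg.hermForm, add_mul, Finset.sum_add_distrib]

theorem h6_add_right (x y z : V6) : h6 x (y + z) = h6 x y + h6 x z := by
  simp [h6, Cfsg.hermForm, F4.sq_add, mul_add, Finset.sum_add_distrib]

theorem h6_smul_left (c : F4) (x z : V6) : h6 (c • x) z = c * h6 x z := by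
  simp [h6, Cfsg.hermForm, Finset.mul_sum, mul_assoc]

theorem h6_smul_right (c : F4) (x z : V6) : h6 x (c • z) = c ^ 2 * h6 x z := by
  simp [h6, Cfsg.hermForm, Finset.mul_sum, mul_pow, mul_assoc, mul_comm, mul_left_comm]

theorem h6_conj (x y : V6) : h6 y x = h6 x y ^ 2 := by
  simp [h6, Cfsg.hermForm, Fin.sum_univ_six, F4.sq_add, mul_pow, ← pow_mul, F4.pow_four]
  ring

theorem tMat_det (v : V6) (hv : h6 v v = 0) : (tMat v).det = 1 := by
  rw [tMat, vecMulVec_eq (ι := Unit), det_one_add_replicateCol_mul_replicateRow]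
  have : (fun i => v i ^ 2) ⬝ᵥ v = 0 := by
    rw [← hv]; simp [h6, Cfsg.hermForm, dotProduct, mul_comm]
  rw [this, add_zero]

theorem tMat_preserves (v : V6) (hv : h6 v v = 0) (x y : V6) :
    h6 (tMat v *ᵥ x) (tMat v *ᵥ y) = h6 x y := by
  rw [tMat_mulVec, tMat_mulVec, h6_add_left, h6_add_right, h6_add_right, h6_smul_left, h6_smul_left,
    h6_smul_right, h6_smul_right, hv, mul_zero, mul_zero, add_zero, h6_conj y v,
    mul_comm (h6 y v ^ 2) (h6 x v), add_assoc, F4.add_self, add_zero]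

/-- The transvection with centre `v` (trivial unless `v` is isotropic). -/
def tv (v : V6) : SU6 :=
  if hv : h6 v v = 0 then ⟨⟨tMat v, tMat_det v hv⟩, tMat_preserves v hv⟩ else 1

theorem mat_tv {v : V6} (hv : h6 v v = 0) : mat (tv v) = tMat v := by
  rw [tv, dif_pos hv]; rfl

theorem tv_zero : tv (0 : V6) = 1 :=
  SU6_ext fun x => by
    rw [mat_tv (by simp [h6, Cfsg.hermForm]), tMat_mulVec, mat_one, one_mulVec, smul_zero, add_zero]

theorem tv_smul {c : F4} (hc : c ≠ 0) (v : V6) : tv (c • v) = tv v := by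
  have e : h6 (c • v) (c • v) = h6 v v := by
    rw [h6_smul_left, h6_smul_right, ← mul_assoc, ← pow_succ', F4.pow_three c hc, one_mul]
  by_cases hv : h6 v v = 0
  · refine SU6_ext fun x => ?_
    rw [mat_tv hv, mat_tv (e.trans hv), tMat_mulVec, tMat_mulVec, h6_smul_right, smul_smul,
      mul_right_comm, ← pow_succ, F4.pow_three c hc, one_mul]
  · simp [tv, hv, e]

theorem mul_tv (g : SU6) (v : V6) : g * tv v = tv (mat g *ᵥ v) * g := by
  by_cases hv : h6 v v = 0
  · refine SU6_ext fun x => ?_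
    rw [mat_mul, mat_mul, mat_tv hv, mat_tv ((mat_h g v v).trans hv), ← mulVec_mulVec, ← mulVec_mulVec,
      tMat_mulVec, tMat_mulVec, mulVec_add, mulVec_smul, mat_h]
  · simp [tv, hv, mat_h]

theorem exists_third : ∀ k j : Fin 6, ∃ i, i ≠ k ∧ i ≠ j := by decide

/-- An element fixing every isotropic line is central. -/
theorem central_of_fixes (g : SU6) (hg : ∀ x : V6, h6 x x = 0 → ∃ c : F4, mat g *ᵥ x = c • x) :
    g ∈ Subgroup.center (Cfsg.SU 6 F4 2) := by
  set N := mat g with hN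
  have key : ∀ (i j : Fin 6) (c : F4), i ≠ j → c ≠ 0 →
      ∃ l, ∀ k, N k i + N k j * c = l * ((Pi.single i 1 : V6) k + c * (Pi.single j 1 : V6) k) := by
    intro i j c hij hc
    obtain ⟨l, hl⟩ := hg (Pi.single i 1 + c • Pi.single j 1) (by
      simp only [h6, Cfsg.hermForm, Pi.add_apply, Pi.smul_apply, smul_eq_mul]
      rw [← Finset.sum_subset (Finset.subset_univ {i, j})]
      · rw [Finset.sum_pair hij]
        simp [Pi.single_eq_of_ne hij, Pi.single_eq_of_ne hij.symm, ← pow_succ', F4.pow_three c hc, F4.add_self]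
      · intro k _ hk
        simp only [Finset.mem_insert, Finset.mem_singleton, not_or] at hk
        simp [Pi.single_eq_of_ne hk.1, Pi.single_eq_of_ne hk.2])
    refine ⟨l, fun k => ?_⟩
    have := congrFun hl k
    simpa [mulVec_add, mulVec_smul, mul_comm] using this
  have off : ∀ k j, k ≠ j → N k j = 0 := by
    intro k j hkj
    obtain ⟨i, hik, hij⟩ := exists_third k j
    obtain ⟨l, hl⟩ := key i j 1 hij one_ne_zero
    obtain ⟨l', hl'⟩ := key i j F4.w hij (by decide)
    have e1 := hl k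
    have e2 := hl' k
    simp only [Pi.single_eq_of_ne hik.symm, Pi.single_eq_of_ne hkj, mul_zero, add_zero, mul_one] at e1 e2
    have h : N k j * (F4.w - 1) = 0 := by linear_combination e2 - e1
    exact (mul_eq_zero.1 h).resolve_right (sub_ne_zero.2 (by decide))
  have diag : ∀ i j, N i i = N j j := by
    intro i j
    by_cases hij : i = j
    · rw [hij]
    obtain ⟨l, hl⟩ := key i j 1 hij one_ne_zero
    have e1 := hl i
    have e2 := hl j
    simp only [Pi.single_eq_same, Pi.single_eq_of_ne hij, Pi.single_eq_of_ne (Ne.symm hij), off _ _ hij,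
      off _ _ (Ne.symm hij), mul_one, mul_zero, zero_mul, zero_add, add_zero] at e1 e2
    rw [e1, e2]
  have hs : N = N 0 0 • (1 : Matrix (Fin 6) (Fin 6) F4) := by
    ext i j
    by_cases hij : i = j
    · subst hij; simp [diag i 0]
    · simp [off i j hij, Matrix.one_apply_ne hij]
  rw [Subgroup.mem_center_iff]
  intro g'
  refine SU6_ext fun x => ?_
  rw [mat_mul, mat_mul, ← hN, hs, smul_mul_assoc, mul_smul_comm, one_mul, mul_one]

/-! ### Coded vectors -/

/-- Digit. -/
def dig (s i : ℕ) : ℕ := s / 4 ^ i % 4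

/-- Decode. -/
def dec (s : ℕ) : V6 := fun i => F4.ofN (dig s i.1)

/-- Encode. -/
def enc (x : V6) : ℕ :=
  F4.toN (x 0) + 4 * F4.toN (x 1) + 16 * F4.toN (x 2) + 64 * F4.toN (x 3) + 256 * F4.toN (x 4) + 1024 * F4.toN (x 5)

theorem enc_lt (x : V6) : enc x < 4096 := by
  have h := fun i => F4.toN_lt (x i)
  have := h 0; have := h 1; have := h 2; have := h 3; have := h 4; have := h 5
  unfold enc; omega

theorem dec_enc (x : V6) : dec (enc x) = x := by
  have h := fun i => F4.toN_lt (x i)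
  have := h 0; have := h 1; have := h 2; have := h 3; have := h 4; have := h 5
  funext i
  rw [← F4.ofN_toN (x i)]
  show F4.ofN (enc x / 4 ^ i.1 % 4) = _
  congr 1
  fin_cases i <;> simp [enc] <;> omega

/-- Sum of codes. -/
def xorN (a b : ℕ) : ℕ := Nat.xor a b

/-- Product of codes. -/
def mulN (a b : ℕ) : ℕ := bif (Nat.beq a 0 || Nat.beq b 0) then 0 else ((a - 1) + (b - 1)) % 3 + 1

theorem xorN_ok : ∀ a < 4, ∀ b < 4, xorN a b < 4 ∧ F4.ofN (xorN a b) = F4.ofN a + F4.ofN b := by decide +kernel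

theorem mulN_ok : ∀ a < 4, ∀ b < 4, mulN a b < 4 ∧ F4.ofN (mulN a b) = F4.ofN a * F4.ofN b := by decide +kernel

/-- One summand of the form. -/
def term (s v i : ℕ) : ℕ := mulN (dig s i) (mulN (dig v i) (dig v i))

/-- The coded form. -/
def hC (s v : ℕ) : ℕ :=
  xorN (term s v 0) (xorN (term s v 1) (xorN (term s v 2) (xorN (term s v 3) (xorN (term s v 4) (term s v 5)))))

theorem dig_lt (s i : ℕ) : dig s i < 4 := Nat.mod_lt _ (by norm_num)

theorem hC_ok (s v : ℕ) : hC s v < 4 ∧ F4.ofN (hC s v) = h6 (dec s) (dec v) := by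
  have t : ∀ i, term s v i < 4 ∧
      F4.ofN (term s v i) = F4.ofN (dig s i) * (F4.ofN (dig v i) * F4.ofN (dig v i)) := fun i => by
    have a := mulN_ok _ (dig_lt v i) _ (dig_lt v i)
    have b := mulN_ok _ (dig_lt s i) _ a.1
    exact ⟨b.1, by rw [term, b.2, a.2]⟩
  have x4 := xorN_ok _ (t 4).1 _ (t 5).1
  have x3 := xorN_ok _ (t 3).1 _ x4.1
  have x2 := xorN_ok _ (t 2).1 _ x3.1
  have x1 := xorN_ok _ (t 1).1 _ x2.1
  have x0 := xorN_ok _ (t 0).1 _ x1.1
  refine ⟨x0.1, ?_⟩
  rw [hC, x0.2, x1.2, x2.2, x3.2, x4.2]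
  simp [t, h6, Cfsg.hermForm, Fin.sum_univ_six, dec, sq]
  ring

/-- Code with given digits. -/
def code6 (d : ℕ → ℕ) : ℕ := d 0 + 4 * d 1 + 16 * d 2 + 64 * d 3 + 256 * d 4 + 1024 * d 5

theorem dig_code6 (d : ℕ → ℕ) (hd : ∀ i, d i < 4) (i : ℕ) (hi : i < 6) : dig (code6 d) i = d i := by
  have := hd 0; have := hd 1; have := hd 2; have := hd 3; have := hd 4; have := hd 5
  interval_cases i <;> simp [dig, code6] <;> omega

/-- The coded transvection. -/
def stepC (v s : ℕ) : ℕ :=
  force (hC s v) fun b => code6 fun i => xorN (dig s i) (mulN b (dig v i))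

/-- The coded scalar multiple. -/
def smulC (l s : ℕ) : ℕ := code6 fun i => mulN l (dig s i)

theorem dec_stepC (v s : ℕ) (hv : h6 (dec v) (dec v) = 0) : dec (stepC v s) = mat (tv (dec v)) *ᵥ dec s := by
  have hb := hC_ok s v
  funext i
  rw [mat_tv hv, tMat_mulVec, ← hb.2]
  show F4.ofN (dig (stepC v s) i.1) = _
  rw [stepC, force_eq, dig_code6 _ (fun j => (xorN_ok _ (dig_lt s j) _ (mulN_ok _ hb.1 _ (dig_lt v j)).1).1) _ i.2,
    (xorN_ok _ (dig_lt s i) _ (mulN_ok _ hb.1 _ (dig_lt v i)).1).2, (mulN_ok _ hb.1 _ (dig_lt v i)).2]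
  rfl

theorem dec_smulC (l s : ℕ) (hl : l < 4) : dec (smulC l s) = F4.ofN l • dec s := by
  funext i
  show F4.ofN (dig (smulC l s) i.1) = _
  rw [smulC, dig_code6 _ (fun j => (mulN_ok _ hl _ (dig_lt s j)).1) _ i.2, (mulN_ok _ hl _ (dig_lt s i)).2]
  rfl

end Cfsg.Agent.Chars.Fi22U6
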