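import Cfsg.Prelude.Def_SporadicB
import Cfsg.Agent.Screen.CosetEnum.PresFi22
import Cfsg.Agent.Screen.CosetEnum.Fi22U62.Checked
import Cfsg.Agent.Chars.Fi22U6.Checks
import Cfsg.Agent.S0280
import Cfsg.Agent.S0283

/-!
# The double cover of `U₆(2)` inside `Fi₂₂`
-/

set_option autoImplicit false
set_option maxRecDepth 20000
set_option maxHeartbeats 4000000

namespace Cfsg.Agent.Chars.Fi22U6

open Cfsg.Agent.Screen.CosetEnum Matrix

/-- The table. -/
abbrev T0 : Tab := Fi22U62.tbl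

/-- The generators. -/
abbrev gg : ℕ → Cfsg.Spor.Fi22 := PresFi22.gens

/-- The subgroup. -/
def Hs : Subgroup Cfsg.Spor.Fi22 := Subgroup.closure {g | ∃ w ∈ T0.subs, g = evalW gg w}

/-- The point of a coset. -/
def pt (c : Fin T0.n) : V6 := dec (ptC c)

/-- `g` moves the orbit as `M` moves the points. -/
def Compat (f : Cfsg.Spor.Fi22 →* Equiv.Perm (Fin T0.n)) (g : Cfsg.Spor.Fi22) (M : SU6) : Prop :=
  ∀ c : Fin T0.n, bit orbS c = true →
    bit orbS (f g c : Fin T0.n) = true ∧ ∃ l : F4, l ≠ 0 ∧ mat M *ᵥ pt c = l • pt (f g c)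

theorem ofN_ne_zero : ∀ l < 4, 0 < l → F4.ofN l ≠ 0 := by decide

theorem vecs_iso (i : ℕ) (hi : i < 9) : h6 (dec (vecs.getD i 0)) (dec (vecs.getD i 0)) = 0 := by
  rw [← (hC_ok _ _).2, vecs_ok i hi]; rfl

variable {f : Cfsg.Spor.Fi22 →* Equiv.Perm (Fin T0.n)} (hf : ∀ x < 9, f (gg x) = Fi22U62.checked.perm x)
include hf

theorem f_word {w : List ℕ} (hw : ∀ x ∈ w, x < 9) (c : Fin T0.n) :
    ((f (evalW gg w) c : Fin T0.n) : ℕ) = T0.app w c := by
  rw [← Fi22U62.checked.app_eq w hw c]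
  congr 2
  induction w with
  | nil => simp [evalW]
  | cons a v ih =>
    rw [evalW, evalW, map_mul, ih fun x hx => hw x (List.mem_cons_of_mem _ hx), hf a (hw a List.mem_cons_self)]

theorem compat_one : Compat f 1 1 := fun c hc => by
  rw [map_one, Equiv.Perm.one_apply, mat_one, one_mulVec]
  exact ⟨hc, 1, one_ne_zero, (one_smul _ _).symm⟩

theorem compat_mul {g g' : Cfsg.Spor.Fi22} {M M' : SU6} (h : Compat f g M) (h' : Compat f g' M') :
    Compat f (g * g') (M * M') := fun c hc => by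
  obtain ⟨hb', l', hl', e'⟩ := h' c hc
  obtain ⟨hb, l, hl, e⟩ := h _ hb'
  rw [map_mul, Equiv.Perm.mul_apply]
  exact ⟨hb, l' * l, mul_ne_zero hl' hl, by rw [mat_mul, ← mulVec_mulVec, e', mulVec_smul, e, smul_smul]⟩

theorem compat_inv {g : Cfsg.Spor.Fi22} {M : SU6} (h : Compat f g M) : Compat f g⁻¹ M⁻¹ := fun c hc => by
  let σ : {c : Fin T0.n // bit orbS c = true} → {c : Fin T0.n // bit orbS c = true} :=
    fun c => ⟨f g c.1, (h c.1 c.2).1⟩
  have hσ : Function.Injective σ := fun u v huv =>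
    Subtype.ext ((f g).injective (congrArg Subtype.val huv))
  obtain ⟨d, hd⟩ := (Finite.injective_iff_surjective.1 hσ) ⟨c, hc⟩
  have hd' : f g d.1 = c := congrArg Subtype.val hd
  obtain ⟨-, l, hl, e⟩ := h d.1 d.2
  rw [map_inv, show (f g)⁻¹ c = d.1 by rw [Equiv.Perm.inv_eq_iff_eq, hd']]
  refine ⟨d.2, l⁻¹, inv_ne_zero hl, ?_⟩
  rw [hd'] at e
  calc mat M⁻¹ *ᵥ pt c = mat M⁻¹ *ᵥ (l⁻¹ • (mat M *ᵥ pt d.1)) := by
        rw [e, smul_smul, inv_mul_cancel₀ hl, one_smul]
    _ = l⁻¹ • pt d.1 := by rw [mulVec_smul, mulVec_inv]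

theorem compat_gen {i : ℕ} (hi : i < 9) :
    Compat f (evalW gg (T0.subs.getD i [])) (tv (dec (vecs.getD i 0))) := by
  intro c hc
  have hlen : T0.subs.length = 9 := rfl
  have hw : ∀ x ∈ T0.subs.getD i [], x < 9 := Fi22U62.checked.letters (Or.inr (by
    rw [List.getD_eq_getElem _ _ (by omega)]; exact List.getElem_mem _))
  obtain ⟨hb, l, hl0, hl4, e⟩ := compGo_spec (comp_ok i hi) c c.isLt hc
  rw [← f_word hf hw c] at hb e
  refine ⟨hb, F4.ofN l, ofN_ne_zero l hl4 hl0, ?_⟩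
  rw [pt, ← dec_stepC _ _ (vecs_iso i hi), e, dec_smulC _ _ hl4]
  rfl

theorem exists_compat {g : Cfsg.Spor.Fi22} (hg : g ∈ Hs) : ∃ M, Compat f g M := by
  induction hg using Subgroup.closure_induction with
  | mem y hy =>
    obtain ⟨w, hw, rfl⟩ := hy
    obtain ⟨i, hi, rfl⟩ := List.getElem_of_mem hw
    exact ⟨_, List.getD_eq_getElem T0.subs [] hi ▸ compat_gen hf (show i < 9 from hi)⟩
  | one => exact ⟨1, compat_one hf⟩
  | mul a b _ _ ha hb =>
    obtain ⟨M, hM⟩ := ha; obtain ⟨M', hM'⟩ := hb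
    exact ⟨_, compat_mul hf hM hM'⟩
  | inv a _ ha =>
    obtain ⟨M, hM⟩ := ha
    exact ⟨_, compat_inv hf hM⟩

omit hf in
theorem cover {v : V6} (hv : h6 v v = 0) (h0 : v ≠ 0) :
    ∃ c : Fin T0.n, bit orbS c = true ∧ ∃ l : F4, l ≠ 0 ∧ v = l • pt c := by
  have h1 : hC (enc v) (enc v) = 0 := by
    have h := (hC_ok (enc v) (enc v)).2
    rw [dec_enc, hv] at h
    exact (show ∀ a < 4, F4.ofN a = 0 → a = 0 by decide) _ (hC_ok _ _).1 h
  have h2 : enc v ≠ 0 := fun h => h0 (by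
    rw [← dec_enc v, h]; funext i; simp [dec, dig]; rfl)
  obtain ⟨hk, hb, hl0, hl4, e⟩ := invGo_spec inv_ok _ (enc_lt v) h2 h1
  refine ⟨⟨invK (enc v), hk⟩, hb, F4.ofN (invL (enc v)), ofN_ne_zero _ hl4 hl0, ?_⟩
  rw [pt, ← dec_smulC _ _ hl4, e, dec_enc]

theorem compat_unique {g : Cfsg.Spor.Fi22} {M M' : SU6} (h : Compat f g M) (h' : Compat f g M') :
    QuotientGroup.mk' (Subgroup.center (Cfsg.SU 6 F4 2)) M = QuotientGroup.mk' _ M' := by
  refine QuotientGroup.eq.2 (central_of_fixes _ fun x hx => ?_)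
  rcases eq_or_ne x 0 with rfl | h0
  · exact ⟨1, by simp⟩
  obtain ⟨c, hc, m, -, rfl⟩ := cover hx h0
  obtain ⟨-, l, hl, e⟩ := h c hc
  obtain ⟨-, l', -, e'⟩ := h' c hc
  refine ⟨l' * l⁻¹, ?_⟩
  have e2 : pt (f g c) = l⁻¹ • (mat M *ᵥ pt c) := by rw [e, smul_smul, inv_mul_cancel₀ hl, one_smul]
  rw [mulVec_smul, mat_mul, ← mulVec_mulVec, e', e2, smul_smul, mulVec_smul, mulVec_inv, smul_smul,
    smul_smul, mul_comm m]

omit hf in
theorem tv_not_comm : tv (dec (vecs.getD 1 0)) * tv (dec (vecs.getD 2 0)) ≠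
    tv (dec (vecs.getD 2 0)) * tv (dec (vecs.getD 1 0)) := by
  intro h
  have h' := congrArg (fun M => mat M *ᵥ dec 256) h
  simp only [mat_mul, ← mulVec_mulVec, ← dec_stepC _ _ (vecs_iso 1 (by norm_num)),
    ← dec_stepC _ _ (vecs_iso 2 (by norm_num))] at h'
  revert h'
  decide +kernel

omit hf in
theorem closure_tv :
    Subgroup.closure {x : Cfsg.PSU 6 F4 2 | ∃ v : V6, h6 v v = 0 ∧ x = QuotientGroup.mk' _ (tv v)} = ⊤ := by
  set N := Subgroup.closure {x : Cfsg.PSU 6 F4 2 | ∃ v : V6, h6 v v = 0 ∧ x = QuotientGroup.mk' _ (tv v)}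
  have hn : N.Normal := by
    constructor
    intro y hy g
    induction hy using Subgroup.closure_induction with
    | mem y hy =>
      obtain ⟨v, hv, rfl⟩ := hy
      obtain ⟨M, rfl⟩ := QuotientGroup.mk'_surjective _ g
      refine Subgroup.subset_closure ⟨mat M *ᵥ v, (mat_h M v v).trans hv, ?_⟩
      rw [← map_inv, ← map_mul, ← map_mul, mul_tv, mul_inv_cancel_right]
    | one => simp
    | mul a b _ _ ha hb => simpa [mul_assoc] using mul_mem ha hb
    | inv a _ ha => simpa [mul_assoc] using inv_mem ha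
  haveI : IsSimpleGroup (Cfsg.PSU 6 F4 2) :=
    Cfsg.Agent.S0283.result (F := F4) (q := 2) F4.card 6 (by norm_num) (by norm_num)
  refine hn.eq_bot_or_eq_top.resolve_left fun hbot => tv_not_comm ?_
  have : QuotientGroup.mk' _ (tv (dec (vecs.getD 1 0))) ∈ N :=
    Subgroup.subset_closure ⟨_, vecs_iso 1 (by norm_num), rfl⟩
  rw [hbot, Subgroup.mem_bot, QuotientGroup.mk'_apply, QuotientGroup.eq_one_iff] at this
  exact (Subgroup.mem_center_iff.1 this _).symm

omit hf in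
theorem card_PSU : Nat.card (Cfsg.PSU 6 F4 2) = 9196830720 := by
  have h := Cfsg.Agent.S0280.result (F := F4) (q := 2) F4.card 6 (by norm_num)
  simp [Finset.prod_range_succ, Nat.even_iff] at h
  omega

/-- The identity holds in the permutation action, hence in the group. -/
theorem word_one (hinj : Function.Injective f) {w : List ℕ} (hw : ∀ x ∈ w, x < 9)
    (h : T0.fixesAll w 3510 = true) : evalW gg w = 1 :=
  hinj (by
    rw [map_one]
    exact Equiv.ext fun c => Fin.ext (by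
      rw [f_word hf hw c, Tab.fixesAll_spec h c c.isLt, Equiv.Perm.one_apply]))

theorem main (hinj : Function.Injective f) (hcard : Nat.card Cfsg.Spor.Fi22 = 64561751654400)
    (hidx : Hs.index = 3510) : Cfsg.IsNonsplitDoubleCover Hs (Cfsg.PSU 6 F4 2) := by
  haveI : IsSimpleGroup (Cfsg.PSU 6 F4 2) :=
    Cfsg.Agent.S0283.result (F := F4) (q := 2) F4.card 6 (by norm_num) (by norm_num)
  have hgen : ∀ w ∈ T0.subs, evalW gg w ∈ Hs := fun w hw => Subgroup.subset_closure ⟨w, hw, rfl⟩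
  -- the homomorphism
  choose M hM using fun g : Hs => exists_compat hf g.2
  let ρ : Hs →* Cfsg.PSU 6 F4 2 := MonoidHom.mk' (fun g => QuotientGroup.mk' _ (M g)) fun g g' => by
    rw [← map_mul]
    exact compat_unique hf (hM (g * g')) (compat_mul hf (hM g) (hM g'))
  have hρ : ∀ (g : Hs) (M' : SU6), Compat f g M' → ρ g = QuotientGroup.mk' _ M' :=
    fun g M' h' => compat_unique hf (hM g) h'
  -- onto
  have hsur : ρ.range = ⊤ := by
    rw [eq_top_iff, ← closure_tv, Subgroup.closure_le]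
    rintro _ ⟨v, hv, rfl⟩
    rcases eq_or_ne v 0 with rfl | h0
    · rw [tv_zero, map_one]; exact one_mem _
    obtain ⟨c, hc, l, hl, rfl⟩ := cover hv h0
    rw [tv_smul hl]
    obtain ⟨e, -, he⟩ := Fi22U62.checked.exists_equiv gg PresFi22.gens_sq PresFi22.gens_out PresFi22.gens_rels
      PresFi22.gens_top Hs rfl f hf
    obtain ⟨k, hk, -, hm⟩ := Fi22U62.checked.orbit gg (H := Hs) rfl hf e he Fi22U62.orbit1
    obtain ⟨h, hh⟩ := MulAction.mem_orbit_iff.1 ((hm c).2 hc)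
    have hh' : f h k = c := e.injective ((he h k).symm.trans hh)
    have hkS : bit orbS k = true := by rw [hk]; decide +kernel
    obtain ⟨-, l', hl', e'⟩ := hM h k hkS
    rw [hh'] at e'
    have hk6 : pt k = dec (vecs.getD 1 0) := by
      rw [pt, hk]; congr 1
    have hC : QuotientGroup.mk' _ (tv (dec (vecs.getD 1 0))) ∈ ρ.range :=
      ⟨⟨_, hgen _ (show [2] ∈ T0.subs by decide +kernel)⟩, hρ _ _ (compat_gen hf (i := 1) (by norm_num))⟩
    have hMR : QuotientGroup.mk' _ (M h) ∈ ρ.range := ⟨h, rfl⟩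
    have hconj : tv (pt c) = M h * tv (pt k) * (M h)⁻¹ := by
      rw [mul_tv, mul_inv_cancel_right, e', tv_smul hl']
    rw [SetLike.mem_coe, hconj, hk6, map_mul, map_mul, map_inv]
    exact mul_mem (mul_mem hMR hC) (inv_mem hMR)
  -- the central involution
  have ha : gg 0 ∈ Hs := by
    have := hgen [0] (by decide +kernel)
    simpa [evalW] using this
  let A : Hs := ⟨gg 0, ha⟩
  have hAρ : ρ A = 1 := by
    rw [hρ A (tv (dec (vecs.getD 0 0)))
      (by simpa [evalW, T0, Fi22U62.tbl] using compat_gen hf (i := 0) (by norm_num)),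
      show dec (vecs.getD 0 0) = 0 by decide +kernel, tv_zero, map_one]
  have hA1 : A ≠ 1 := by
    intro h
    have h1 : gg 0 = 1 := congrArg Subtype.val h
    have h2 := Fi22U62.checked.perm_apply (x := 0) (by decide +kernel) ⟨1, by decide +kernel⟩
    rw [← hf 0 (by norm_num), h1, map_one, Equiv.Perm.one_apply] at h2
    exact (show (1 : ℕ) ≠ T0.img 1 0 by decide +kernel) h2
  have hcent : Hs ≤ Subgroup.centralizer {gg 0} := by
    rw [Hs, Subgroup.closure_le]
    rintro _ ⟨w, hw, rfl⟩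
    rw [SetLike.mem_coe, Subgroup.mem_centralizer_singleton_iff]
    have h := word_one hf hinj (w := w.reverse ++ ([0] ++ (w ++ [0])))
      ((show ∀ w ∈ T0.subs, ∀ x ∈ w.reverse ++ ([0] ++ (w ++ [0])), x < 9 by decide +kernel) w hw)
      ((show ∀ w ∈ T0.subs, T0.fixesAll (w.reverse ++ ([0] ++ (w ++ [0]))) 3510 = true by decide +kernel) w hw)
    rw [evalW_append, evalW_append, evalW_append, evalW_reverse PresFi22.gens_sq] at h
    simp only [evalW, one_mul] at h
    have h0 := PresFi22.gens_sq 0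
    calc evalW gg w * gg 0 = (gg 0 * evalW gg w * gg 0 * (evalW gg w)⁻¹)⁻¹ * (gg 0 * evalW gg w) *
          (gg 0 * gg 0) := by group
      _ = gg 0 * evalW gg w := by rw [h, h0, inv_one, one_mul, mul_one]
  have hAc : A ∈ Subgroup.center Hs := Subgroup.mem_center_iff.2 fun g =>
    Subtype.ext (Subgroup.mem_centralizer_singleton_iff.1 (hcent g.2))
  haveI : Finite Cfsg.Spor.Fi22 := Nat.finite_of_card_ne_zero (by rw [hcard]; norm_num)
  have hH : Nat.card Hs = 18393661440 := by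
    have h := Subgroup.card_mul_index Hs
    rw [hidx, hcard] at h
    omega
  have hker : Nat.card ρ.ker = 2 := by
    have h := Subgroup.card_mul_index ρ.ker
    rw [Subgroup.index_ker, hsur, Subgroup.card_top, card_PSU, hH] at h
    omega
  have hA2 : orderOf A = 2 := orderOf_eq_prime (Subtype.ext (by
    rw [SubgroupClass.coe_pow, sq]; exact PresFi22.gens_sq 0)) hA1
  have hz : Subgroup.zpowers A = ρ.ker :=
    Subgroup.eq_of_le_of_card_ge (Subgroup.zpowers_le.2 hAρ) (by rw [Nat.card_zpowers, hA2, hker])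
  have hcenPSU : Subgroup.center (Cfsg.PSU 6 F4 2) = ⊥ := by
    have hn : (Subgroup.center (Cfsg.PSU 6 F4 2)).Normal := inferInstance
    refine hn.eq_bot_or_eq_top.resolve_right fun h => ?_
    letI : CommGroup (Cfsg.PSU 6 F4 2) :=
      { (inferInstance : Group (Cfsg.PSU 6 F4 2)) with
        mul_comm := fun x y => Subgroup.mem_center_iff.1 (by rw [h]; trivial) x }
    have hp : (Nat.card (Cfsg.PSU 6 F4 2)).Prime := IsSimpleGroup.prime_card
    rw [card_PSU] at hp
    exact absurd hp (by norm_num)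
  have hce : Subgroup.center Hs = ρ.ker := by
    refine le_antisymm (fun z hz' => ?_) (hz ▸ Subgroup.zpowers_le.2 hAc)
    have : ρ z ∈ Subgroup.center (Cfsg.PSU 6 F4 2) := Subgroup.mem_center_iff.2 fun y => by
      obtain ⟨x, rfl⟩ := MonoidHom.range_eq_top.1 hsur y
      rw [← map_mul, ← map_mul, Subgroup.mem_center_iff.1 hz' x]
    rwa [hcenPSU, Subgroup.mem_bot] at this
  refine ⟨by rw [hce, hker], ⟨(QuotientGroup.quotientMulEquivOfEq hce).trans
    (QuotientGroup.quotientKerEquivOfSurjective ρ (MonoidHom.range_eq_top.1 hsur))⟩, fun L hL => ?_⟩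
  -- no complement
  have hL2 : L.index = 2 := by rw [(Subgroup.IsComplement'.index_eq_card hL), hce, hker]
  set L' := L.map Hs.subtype with hL'
  have hiff : ∀ (x : Cfsg.Spor.Fi22) (hx : x ∈ Hs), x ∈ L' ↔ (⟨x, hx⟩ : Hs) ∈ L := fun x hx =>
    ⟨fun ⟨y, hy, e⟩ => by rwa [show (⟨x, hx⟩ : Hs) = y from Subtype.ext e.symm], fun h => ⟨_, h, rfl⟩⟩
  have hmul : ∀ x y, x ∈ Hs → y ∈ Hs → (x * y ∈ L' ↔ (x ∈ L' ↔ y ∈ L')) := fun x y hx hy => by
    rw [hiff _ (mul_mem hx hy), hiff x hx, hiff y hy]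
    exact Subgroup.mul_mem_iff_of_index_two hL2 (a := ⟨x, hx⟩) (b := ⟨y, hy⟩)
  have hodd : ∀ x, x ∈ Hs → ∀ k : ℕ, x ^ (2 * k + 1) = 1 → x ∈ L' := fun x hx k h => by
    rw [pow_succ, mul_eq_one_iff_eq_inv] at h
    rw [hiff x hx]
    have h2 : (⟨x, hx⟩ : Hs) ^ (2 * k) ∈ L := by
      rw [pow_mul]; exact pow_mem (Subgroup.sq_mem_of_index_two hL2 _) k
    rw [show (⟨x, hx⟩ : Hs) ^ (2 * k) = (⟨x, hx⟩ : Hs)⁻¹ from Subtype.ext h, inv_mem_iff] at h2
    exact h2
  have hpow : ∀ (w : List ℕ) (k : ℕ), (∀ x ∈ pw (2 * k + 1) w, x < 9) → evalW gg w ∈ Hs →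
      T0.fixesAll (pw (2 * k + 1) w) 3510 = true → evalW gg w ∈ L' := fun w k hl hw hfx =>
    hodd _ hw k (by rw [← evalW_pw]; exact word_one hf hinj hl hfx)
  have hx : ∀ x, [x] ∈ T0.subs → gg x ∈ Hs := fun x hx => by simpa [evalW] using hgen [x] hx
  have h2 := hx 2 (by decide +kernel); have h3 := hx 3 (by decide +kernel)
  have h4 := hx 4 (by decide +kernel); have h5 := hx 5 (by decide +kernel)
  have h6' := hx 6 (by decide +kernel); have h7 := hx 7 (by decide +kernel)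
  have h8 := hx 8 (by decide +kernel)
  have hpair : ∀ x y, gg x ∈ Hs → gg y ∈ Hs → T0.fixesAll (pw 3 [x, y]) 3510 = true →
      (∀ z ∈ pw 3 [x, y], z < 9) → (gg y ∈ L' ↔ gg x ∈ L') := fun x y hxH hyH hfx hl => by
    have h := hpow [x, y] 1 hl (by simpa [evalW] using mul_mem hyH hxH) hfx
    rw [show evalW gg [x, y] = gg y * gg x by simp [evalW], hmul _ _ hyH hxH] at h
    exact h
  have p3 := hpair 2 3 h2 h3 (by decide +kernel) (by decide)
  have p4 := hpair 3 4 h3 h4 (by decide +kernel) (by decide)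
  have p5 := hpair 4 5 h4 h5 (by decide +kernel) (by decide)
  have p6 := hpair 5 6 h5 h6' (by decide +kernel) (by decide)
  have p7 := hpair 3 7 h3 h7 (by decide +kernel) (by decide)
  have p8 := hpair 7 8 h7 h8 (by decide +kernel) (by decide)
  have h9 := hpow [7, 5, 6, 2, 3, 4, 6, 8, 6] 4 (by decide) (by
    simpa [evalW] using mul_mem (mul_mem (mul_mem (mul_mem (mul_mem (mul_mem (mul_mem (mul_mem h6' h8) h6')
      h4) h3) h2) h6') h5) h7) (by decide +kernel)
  have q2 : gg 2 ∈ L' := by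
    simp only [evalW, one_mul] at h9
    simp (discharger := (repeat' apply mul_mem) <;> assumption) only [hmul, p8, p7, p6, p5, p4, p3] at h9
    tauto
  have q3 := p3.2 q2; have q4 := p4.2 q3; have q5 := p5.2 q4; have q7 := p7.2 q3
  have hU : [7, 4, 3, 2, 1, 0, 7, 4, 3, 2, 1, 0, 7, 4, 3, 2, 1, 0, 7, 4, 3, 2, 1, 0, 7, 4, 3, 2, 1, 0] ∈
      T0.subs := by decide +kernel
  have hUH := hgen _ hU
  set U : List ℕ := [7, 4, 3, 2, 1, 0, 7, 4, 3, 2, 1, 0, 7, 4, 3, 2, 1, 0, 7, 4, 3, 2, 1, 0, 7, 4, 3, 2, 1, 0]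
    with hUdef
  have hfu := hpow (U ++ [5]) 1 (by decide) (by
    rw [evalW_append]; simpa [evalW] using mul_mem h5 hUH) (by decide +kernel)
  have qU : evalW gg U ∈ L' := by
    rw [evalW_append, show evalW gg [5] = gg 5 by simp [evalW], hmul _ _ h5 hUH] at hfu
    exact hfu.1 q5
  have hw := hpow ([7, 0, 2, 5] ++ (U ++ [3, 2, 2, 4])) 2 (by decide) (by
    rw [evalW_append, evalW_append]
    refine mul_mem (mul_mem ?_ hUH) ?_
    · simpa [evalW] using mul_mem (mul_mem (mul_mem h4 h2) h2) h3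
    · simpa [evalW] using mul_mem (mul_mem (mul_mem h5 h2) ha) h7) (by decide +kernel)
  have qA : gg 0 ∈ L' := by
    rw [evalW_append, evalW_append, show evalW gg [3, 2, 2, 4] = gg 4 * gg 2 * gg 2 * gg 3 by simp [evalW],
      show evalW gg [7, 0, 2, 5] = gg 5 * gg 2 * gg 0 * gg 7 by simp [evalW]] at hw
    have hl : gg 4 * gg 2 * gg 2 * gg 3 * evalW gg U ∈ L' :=
      mul_mem (mul_mem (mul_mem (mul_mem q4 q2) q2) q3) qU
    rw [Subgroup.mul_mem_cancel_left _ hl, Subgroup.mul_mem_cancel_right _ q7,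
      Subgroup.mul_mem_cancel_left _ (mul_mem q5 q2)] at hw
    exact hw
  have : A ∈ Subgroup.center Hs ⊓ L := ⟨hAc, (hiff _ ha).1 qA⟩
  rw [disjoint_iff.1 hL.disjoint, Subgroup.mem_bot] at this
  exact hA1 this

end Cfsg.Agent.Chars.Fi22U6
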